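import Cfsg.Agent.H6.More2

/-! Heisenberg groups of order 343, pairs of common fixed points, transport of suborbits. -/

set_option autoImplicit false

namespace Cfsg.ON7

open Cfsg.H6 Subgroup

variable {G : Type*} [Group G]

/-- Relations of the Heisenberg group of order 343. -/
structure Heis (a b c : G) : Prop where
  a7 : a ^ 7 = 1
  b7 : b ^ 7 = 1
  c7 : c ^ 7 = 1
  ac : Commute a c
  bc : Commute b c
  ba : b * a = a * b * c
  c1 : c ≠ 1

/-- The normal form. -/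
def nf (a b c : G) (i j k : ℕ) : G := a ^ i * b ^ j * c ^ k

theorem map_nf {G' : Type*} [Group G'] (f : G →* G') (a b c : G) (i j k : ℕ) :
    f (nf a b c i j k) = nf (f a) (f b) (f c) i j k := by simp [nf]

namespace Heis

variable {a b c : G} (h : Heis a b c)
include h

theorem swap1 (i : ℕ) : b * a ^ i = a ^ i * b * c ^ i := by
  induction i with
  | zero => simp
  | succ i ih =>
    rw [pow_succ, ← mul_assoc, ih, mul_assoc, ← (h.ac.pow_right i).eq, ← mul_assoc,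
      mul_assoc (a ^ i), h.ba, pow_succ' c]
    simp only [mul_assoc]

theorem swap (i j : ℕ) : b ^ j * a ^ i = a ^ i * b ^ j * c ^ (i * j) := by
  induction j with
  | zero => simp
  | succ j ih =>
    rw [pow_succ', mul_assoc, ih, ← mul_assoc, ← mul_assoc, h.swap1, mul_add, mul_one, add_comm,
      pow_add, mul_assoc _ (c ^ i), ← (h.bc.pow_pow j i).eq]
    simp only [mul_assoc]

theorem mul (i j k i' j' k' : ℕ) : nf a b c i j k * nf a b c i' j' k' =
    nf a b c (i + i') (j + j') (k + k' + i' * j) := by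
  have e1 : c ^ k * a ^ i' = a ^ i' * c ^ k := ((h.ac.pow_pow i' k).eq).symm
  have e2 : ∀ n, c ^ n * b ^ j' = b ^ j' * c ^ n := fun n => ((h.bc.pow_pow j' n).eq).symm
  unfold nf
  calc a ^ i * b ^ j * c ^ k * (a ^ i' * b ^ j' * c ^ k')
      = a ^ i * (b ^ j * (c ^ k * a ^ i')) * b ^ j' * c ^ k' := by simp only [mul_assoc]
    _ = a ^ i * (a ^ i' * b ^ j * c ^ (i' * j) * c ^ k) * b ^ j' * c ^ k' := by
      rw [e1, ← mul_assoc (b ^ j), h.swap]
    _ = a ^ i * a ^ i' * b ^ j * (c ^ (i' * j + k) * b ^ j') * c ^ k' := by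
      rw [pow_add]; simp only [mul_assoc]
    _ = _ := by
      rw [e2, pow_add a, pow_add b, show k + k' + i' * j = i' * j + k + k' by ring, pow_add c _ k']
      simp only [mul_assoc]

theorem mod (i j k : ℕ) : nf a b c i j k = nf a b c (i % 7) (j % 7) (k % 7) := by
  unfold nf
  rw [← pow_eq_pow_mod _ h.a7, ← pow_eq_pow_mod _ h.b7, ← pow_eq_pow_mod _ h.c7]

theorem pow (i j k r : ℕ) : ∃ k', nf a b c i j k ^ r = nf a b c (r * i) (r * j) k' := by
  induction r with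
  | zero => exact ⟨0, by simp [nf]⟩
  | succ r ih =>
    obtain ⟨k', e⟩ := ih
    exact ⟨_, by rw [pow_succ, e, h.mul, add_mul, add_mul, one_mul, one_mul]⟩

theorem exists_nf {g : G} (hg : g ∈ closure {a, b}) : ∃ i j k, g = nf a b c i j k := by
  induction hg using closure_induction'' with
  | one => exact ⟨0, 0, 0, by simp [nf]⟩
  | mem x hx =>
    rcases hx with rfl | rfl
    · exact ⟨1, 0, 0, by simp [nf]⟩
    · exact ⟨0, 1, 0, by simp [nf]⟩
  | inv_mem x hx =>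
    rcases hx with rfl | rfl
    · exact ⟨6, 0, 0, by simpa [nf] using (eq_inv_of_mul_eq_one_left (by rw [← pow_succ, h.a7])).symm⟩
    · exact ⟨0, 6, 0, by simpa [nf] using (eq_inv_of_mul_eq_one_left (by rw [← pow_succ, h.b7])).symm⟩
  | mul x y _ _ hx hy =>
    obtain ⟨i, j, k, rfl⟩ := hx
    obtain ⟨i', j', k', rfl⟩ := hy
    exact ⟨_, _, _, h.mul ..⟩

theorem cpow {k k' : ℕ} (e : c ^ k = c ^ k') : k % 7 = k' % 7 := by
  have : Fact (Nat.Prime 7) := ⟨by norm_num⟩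
  have := pow_eq_pow_iff_modEq.mp e
  rwa [orderOf_eq_prime h.c7 h.c1] at this

theorem inj {i j k i' j' k' : ℕ} (e : nf a b c i j k = nf a b c i' j' k') :
    i % 7 = i' % 7 ∧ j % 7 = j' % 7 ∧ k % 7 = k' % 7 := by
  have f1 : ∀ i j k, nf a b c 0 1 0 * nf a b c i j k = nf a b c i j k * nf a b c 0 1 i := by
    intro i j k
    rw [h.mul, h.mul]
    congr 1 <;> ring
  have f2 : ∀ i j k, nf a b c i j k * nf a b c 1 0 0 = nf a b c 1 0 j * nf a b c i j k := by
    intro i j k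
    rw [h.mul, h.mul]
    congr 1 <;> ring
  have h1 : i % 7 = i' % 7 := by
    have := f1 i j k
    rw [e, f1, mul_right_inj] at this
    exact (h.cpow (mul_left_cancel this)).symm
  have h2 : j % 7 = j' % 7 := by
    have := f2 i j k
    rw [e, f2, mul_left_inj] at this
    exact (h.cpow (mul_left_cancel this)).symm
  refine ⟨h1, h2, ?_⟩
  rw [h.mod, h.mod i', h1, h2] at e
  simpa using h.cpow (mul_left_cancel e)

theorem card : Nat.card (closure {a, b} : Subgroup G) = 7 ^ 3 := by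
  have ha : a ∈ closure {a, b} := subset_closure (by simp)
  have hb : b ∈ closure {a, b} := subset_closure (by simp)
  have hc : c ∈ closure {a, b} := by
    have : c = (a * b)⁻¹ * (b * a) := by rw [h.ba]; group
    rw [this]
    exact mul_mem (inv_mem (mul_mem ha hb)) (mul_mem hb ha)
  let f : Fin 7 × Fin 7 × Fin 7 → (closure {a, b} : Subgroup G) := fun x =>
    ⟨nf a b c x.1 x.2.1 x.2.2, mul_mem (mul_mem (pow_mem ha _) (pow_mem hb _)) (pow_mem hc _)⟩
  rw [← Nat.card_eq_of_bijective f ⟨?_, ?_⟩]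
  · simp
  · rintro ⟨i, j, k⟩ ⟨i', j', k'⟩ e
    obtain ⟨h1, h2, h3⟩ := h.inj (congrArg Subtype.val e)
    simp only [Prod.mk.injEq, Fin.ext_iff]
    simp only at h1 h2 h3
    omega
  · rintro ⟨g, hg⟩
    obtain ⟨i, j, k, rfl⟩ := h.exists_nf hg
    exact ⟨(⟨i % 7, by omega⟩, ⟨j % 7, by omega⟩, ⟨k % 7, by omega⟩),
      Subtype.ext (h.mod i j k).symm⟩

theorem map {G' : Type*} [Group G'] (f : G →* G') (hf : Function.Injective f) :
    Heis (f a) (f b) (f c) :=
  ⟨by rw [← map_pow, h.a7, map_one], by rw [← map_pow, h.b7, map_one],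
    by rw [← map_pow, h.c7, map_one], h.ac.map f, h.bc.map f,
    by rw [← map_mul, h.ba, map_mul, map_mul], fun e => h.c1 (hf (by rw [e, map_one]))⟩

/-- The commutator of two normal forms. -/
theorem comm {i j k i' j' k' : ℕ} {Z : G} (h' : Heis (nf a b c i j k) (nf a b c i' j' k') Z) :
    Z = c ^ (i * j' + 6 * (i' * j)) ∧ (i * j' + 6 * (i' * j)) % 7 ≠ 0 := by
  have e : Z = c ^ (i * j' + 6 * (i' * j)) := by
    have := h'.ba
    rw [h.mul, h.mul, add_comm i', add_comm j', add_comm k'] at this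
    unfold nf at this
    rw [mul_assoc _ _ Z, mul_right_inj, pow_add, pow_add c _ (i' * j), mul_assoc, mul_right_inj]
      at this
    have h7 : c ^ (6 * (i' * j)) * c ^ (i' * j) = 1 := by
      rw [← pow_add, show 6 * (i' * j) + i' * j = 7 * (i' * j) by ring, pow_mul, h.c7, one_pow]
    rw [add_comm, pow_add, this, ← mul_assoc, h7, one_mul]
  refine ⟨e, fun h0 => h'.c1 ?_⟩
  rw [e, pow_eq_pow_mod _ h.c7, h0, pow_zero]

theorem root {m : ℕ} (hm : m % 7 ≠ 0) : (c ^ m) ^ (m ^ 5) = c := by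
  have : (m * m ^ 5) % 7 = 1 := by
    rw [← pow_succ', Nat.pow_mod]
    have : m % 7 < 7 := Nat.mod_lt _ (by norm_num)
    interval_cases m % 7 <;> simp_all
  rw [← pow_mul, pow_eq_pow_mod _ h.c7, this, pow_one]

end Heis

theorem conj_of_card [Finite G] {p k : ℕ} [Fact p.Prime] {A B : Subgroup G}
    (hA : Nat.card A = p ^ k) (hB : Nat.card B = p ^ k) (hG : ¬ p ^ (k + 1) ∣ Nat.card G) :
    ∃ g : G, ∀ x ∈ A, g * x * g⁻¹ ∈ B := by
  have hf : (Nat.card G).factorization p = k := by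
    refine le_antisymm ?_ ?_
    · by_contra hc
      exact hG ((pow_dvd_pow p (by omega)).trans (Nat.ordProj_dvd _ p))
    · exact (Nat.Prime.pow_dvd_iff_le_factorization Fact.out Nat.card_pos.ne').mp
        (hA ▸ A.card_subgroup_dvd_card)
  obtain ⟨g, hg⟩ := MulAction.exists_smul_eq G (Sylow.ofCard A (hf ▸ hA)) (Sylow.ofCard B (hf ▸ hB))
  refine ⟨g, fun x hx => ?_⟩
  have : g * x * g⁻¹ ∈ ((g • Sylow.ofCard A (hf ▸ hA) : Sylow p G) : Subgroup G) :=
    Subgroup.smul_mem_pointwise_smul x (MulAut.conj g) A hx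
  rwa [hg] at this

variable {φ : G →* Equiv.Perm ℕ}

/-- Two points of the orbit of `0` are fixed by both elements. -/
def Two (φ : G →* Equiv.Perm ℕ) (u z : G) : Prop :=
  ∃ p q, p ≠ q ∧ p ∈ orb φ ⊤ 0 ∧ q ∈ orb φ ⊤ 0 ∧ φ u p = p ∧ φ u q = q ∧ φ z p = p ∧ φ z q = q

theorem orb_apply (g : G) {p : ℕ} (hp : p ∈ orb φ ⊤ 0) : φ g p ∈ orb φ ⊤ 0 :=
  orb_step' (g := g) (by simpa using hp) (mem_top _)

theorem Two.conj {u z : G} (h : Two φ u z) (g : G) : Two φ (g * u * g⁻¹) (g * z * g⁻¹) := by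
  obtain ⟨p, q, h0, h1, h2, h3, h4, h5, h6⟩ := h
  refine ⟨φ g p, φ g q, fun e => h0 ((φ g).injective e), orb_apply g h1, orb_apply g h2,
    ?_, ?_, ?_, ?_⟩ <;> simp [*]

theorem fix_pow {z : G} {p : ℕ} (h : φ z p = p) (k : ℕ) : φ (z ^ k) p = p := by
  rw [map_pow]
  exact Equiv.Perm.pow_apply_eq_self_of_apply_eq_self h k

theorem Two.pow {u z : G} (h : Two φ u z) (k : ℕ) : Two φ u (z ^ k) := by
  obtain ⟨p, q, h0, h1, h2, h3, h4, h5, h6⟩ := h
  exact ⟨p, q, h0, h1, h2, h3, h4, fix_pow h5 k, fix_pow h6 k⟩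

/-- The finite check on the eight lines. -/
def Dich (B : ℕ → ℕ → Bool) : Prop :=
  ∀ i < 7, ∀ j < 7, ∀ i' < 7, ∀ j' < 7, (i * j' + 6 * (i' * j)) % 7 = 0 ∨ B i j = B i' j' ∨
    ∃ r < 7, ∃ s < 7, B ((r * i + s * i') % 7) ((r * j + s * j') % 7) = true ∧
      B ((r * i + 6 * s * i') % 7) ((r * j + 6 * s * j') % 7) = false

theorem dich {a b c : G} (h : Heis a b c) {B : ℕ → ℕ → Bool}
    (hB : ∀ i j k, Two φ (nf a b c i j k) c ↔ B (i % 7) (j % 7) = true) (hD : Dich B)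
    {i j k i' j' k' : ℕ} (hi : i < 7) (hj : j < 7) (hi' : i' < 7) (hj' : j' < 7) {Z T : G}
    (h' : Heis (nf a b c i j k) (nf a b c i' j' k') Z)
    (t1 : T * nf a b c i j k * T⁻¹ = nf a b c i j k)
    (t2 : T * nf a b c i' j' k' * T⁻¹ = nf a b c i' j' k' ^ 6) (t3 : T * Z * T⁻¹ = Z ^ 6) :
    B i j = B i' j' := by
  obtain ⟨e, hm⟩ := h.comm h'
  rcases hD i hi j hj i' hi' j' hj' with h0 | h0 | ⟨r, -, s, -, h1, h2⟩
  · exact absurd h0 hm
  · exact h0
  exfalso
  obtain ⟨k1, e1⟩ := h.pow i j k r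
  obtain ⟨k2, e2⟩ := h.pow i' j' k' s
  obtain ⟨k3, e3⟩ := h.pow i' j' k' (6 * s)
  have := (hB _ _ (k1 + k2 + s * i' * (r * j))).mpr h1
  rw [← h.mul, ← e1, ← e2] at this
  have := (((this.pow (i * j' + 6 * (i' * j))).conj T).pow 6).pow ((i * j' + 6 * (i' * j)) ^ 5)
  have z6 : (Z ^ 6) ^ 6 = Z := by rw [← pow_mul, pow_eq_pow_mod _ h'.c7, pow_one]
  rw [← e, t3, z6, e, h.root hm,
    ← conj_mul, ← conj_pow, ← conj_pow, t1, t2, ← pow_mul, e1, e3, h.mul, hB, h2] at this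
  exact absurd this (by simp)

/-- An element interchanging the two generators fixes the unique fixed point. -/
theorem fix_of_not_two {X Z U : G} (h : ¬ Two φ X Z) (h1 : φ X 0 = 0) (h2 : φ Z 0 = 0)
    (u1 : X * U = U * Z) (u2 : Z * U = U * X) : φ U 0 = 0 := by
  by_contra hc
  refine h ⟨φ U 0, 0, hc, orb_apply U (mem_orb_self ..), mem_orb_self .., ?_, h1, ?_, h2⟩
  · rw [← Equiv.Perm.mul_apply, ← map_mul, u1, map_mul, Equiv.Perm.mul_apply, h2]
  · rw [← Equiv.Perm.mul_apply, ← map_mul, u2, map_mul, Equiv.Perm.mul_apply, h1]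

theorem orbit_map {G' : Type*} [Group G'] (e : G ≃* G') {H : Subgroup G} {H' : Subgroup G'}
    (h : ∀ x, e x ∈ H' ↔ x ∈ H) (q' : G' ⧸ H') :
    ∃ q : G ⧸ H, (MulAction.orbit H q).ncard = (MulAction.orbit H' q').ncard := by
  let f : G ⧸ H → G' ⧸ H' := Quotient.map' e fun x y hxy => by
    rw [QuotientGroup.leftRel_apply] at hxy ⊢
    rw [← map_inv, ← map_mul, h]
    exact hxy
  have hf : Function.Injective f := by
    rintro ⟨x⟩ ⟨y⟩ hxy
    have : (e x : G' ⧸ H') = (e y : G' ⧸ H') := hxy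
    rw [QuotientGroup.eq, ← map_inv, ← map_mul, h] at this
    exact QuotientGroup.eq.mpr this
  obtain ⟨g', rfl⟩ := QuotientGroup.mk_surjective q'
  obtain ⟨g, rfl⟩ := e.surjective g'
  refine ⟨g, ?_⟩
  rw [← Set.ncard_image_of_injective _ hf]
  congr 1
  ext q
  constructor
  · rintro ⟨_, ⟨x, rfl⟩, rfl⟩
    refine ⟨⟨e x, (h _).mpr x.2⟩, ?_⟩
    change ((e x * e g : G') : G' ⧸ H') = ((e (x * g) : G') : G' ⧸ H')
    rw [map_mul]
  · rintro ⟨⟨y, hy⟩, rfl⟩
    obtain ⟨x, rfl⟩ := e.surjective y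
    refine ⟨_, ⟨⟨x, (h _).mp hy⟩, rfl⟩, ?_⟩
    change ((e (x * g) : G') : G' ⧸ H') = ((e x * e g : G') : G' ⧸ H')
    rw [map_mul]

end Cfsg.ON7
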