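import Cfsg.Agent.ON7.A
import Cfsg.Agent.H6.ON.Main

/-! A Sylow 7-subgroup of the presented O'Nan group and an automorphism normalising it. -/

set_option autoImplicit false
set_option maxRecDepth 100000
set_option Elab.async false

namespace Cfsg.ON7

open Cfsg.H6 Cfsg.H6.ON Subgroup

theorem eqw {G : Type*} [Group G] {ev : ℕ → G} {img : ℕ → ℕ → ℕ} {m inv : ℕ} {bs : List ℕ}
    (ho : Oracle ev img m bs) (hev : Good ev inv) {u w : List ℕ}
    (h : fixB img m bs (u ++ invW inv w) = true) : evL ev u = evL ev w := by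
  have := ho _ h
  rwa [evL_append, evL_invW hev, mul_inv_eq_one] at this

theorem heis_of {G : Type*} [Group G] {ev : ℕ → G} {img : ℕ → ℕ → ℕ} {m inv : ℕ} {bs : List ℕ}
    (ho : Oracle ev img m bs) (hev : Good ev inv) {a b c : List ℕ}
    (h : ([rp 7 a, rp 7 b, rp 7 c, a ++ c ++ invW inv (c ++ a), b ++ c ++ invW inv (c ++ b),
      b ++ a ++ invW inv (a ++ b ++ c)].all (fixB img m bs)) = true) (h1 : evL ev c ≠ 1) :
    Heis (evL ev a) (evL ev b) (evL ev c) := by
  simp only [List.all_cons, List.all_nil, Bool.and_true, Bool.and_eq_true] at h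
  obtain ⟨h2, h3, h4, h5, h6, h7⟩ := h
  refine ⟨?_, ?_, ?_, ?_, ?_, ?_, h1⟩
  · rw [← evL_rp, ho _ h2]
  · rw [← evL_rp, ho _ h3]
  · rw [← evL_rp, ho _ h4]
  · simpa only [evL_append, Commute, SemiconjBy] using eqw ho hev h5
  · simpa only [evL_append, Commute, SemiconjBy] using eqw ho hev h6
  · simpa only [evL_append] using eqw ho hev h7

def wa : List ℕ := [1, 2, 4, 3, 4, 3, 2, 5, 4, 3, 2, 4, 3, 4, 6, 5, 4, 3, 2, 1, 4, 3, 2, 5]

def wb : List ℕ := [2, 1, 4, 3, 4, 3, 5, 4, 3, 6]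

def wc : List ℕ := [2, 3, 2, 4, 3, 4, 5, 4]

def fixL : List ℕ :=
  [0, 6944, 6961, 7903, 8569, 8628, 8631, 8662, 9354, 9588, 9697, 9798, 10111, 10274, 10658]

noncomputable def a0 : Spor.ON := evL ev wa

noncomputable def b0 : Spor.ON := evL ev wb

noncomputable def c0 : Spor.ON := evL ev wc

theorem heis0 : Heis a0 b0 c0 :=
  heis_of main.2.2 hev (by decide +kernel) (hφ.ne_one (p := 1) (by decide +kernel))

noncomputable def scan (p : ℕ) : Bool := !Nat.beq (trF img wc p) p || fixL.elem p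

theorem s0 : allR scan 0 30690 = true := by decide +kernel

theorem s1 : allR scan 30690 30690 = true := by decide +kernel

theorem s2 : allR scan 61380 30690 = true := by decide +kernel

theorem s3 : allR scan 92070 30690 = true := by decide +kernel

theorem fix_iff {w : List ℕ} (hw : inR 9 w = true) {p : ℕ} (hp : p < 122760) :
    φ (evL ev w) p = p ↔ trF img w p = p := by
  rw [← (hφ.trF hw hp).1, Equiv.Perm.inv_eq_iff_eq, eq_comm]

theorem mem_fixL {p : ℕ} (hp : p < 122760) (h : φ c0 p = p) : p ∈ fixL := by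
  have := range_join (range_join (allR_range s0 (by norm_num : 0 + 30690 = 30690))
    (allR_range s1 (by norm_num : 30690 + 30690 = 61380))) (range_join
    (allR_range s2 (by norm_num : 61380 + 30690 = 92070))
    (allR_range s3 (by norm_num : 92070 + 30690 = 122760))) p (Nat.zero_le _) hp
  rw [scan, (fix_iff (by decide) hp).mp h] at this
  simpa using this

/-- The pairs of exponents with more than one fixed point. -/
def bad (i j : ℕ) : Bool := Nat.testBit 107830599257089 (7 * i + j)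

theorem tab : ∀ i < 7, ∀ j < 7, inR 9 (rp i wa ++ rp j wb) = true ∧
    bad i j = fixL.any fun p => !Nat.beq p 0 && Nat.beq (trF img (rp i wa ++ rp j wb) p) p := by
  decide +kernel

theorem fixL_ok : ∀ p ∈ fixL, p < 122760 ∧ trF img wc p = p := by decide +kernel

theorem a0_fix : φ a0 0 = 0 := (fix_iff (by decide) (by norm_num)).mpr (by decide +kernel)

theorem b0_fix : φ b0 0 = 0 := (fix_iff (by decide) (by norm_num)).mpr (by decide +kernel)

theorem c0_fix : φ c0 0 = 0 := (fix_iff (by decide) (by norm_num)).mpr (by decide +kernel)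

theorem nf_apply {p : ℕ} (h : φ c0 p = p) (i j k : ℕ) :
    φ (nf a0 b0 c0 i j k) p = φ (evL ev (rp i wa ++ rp j wb)) p := by
  rw [nf, map_mul, Equiv.Perm.mul_apply, fix_pow h, evL_append, evL_rp, evL_rp]
  rfl

theorem nf_fix (i j k : ℕ) : φ (nf a0 b0 c0 i j k) 0 = 0 := by
  rw [nf, map_mul, map_mul, Equiv.Perm.mul_apply, Equiv.Perm.mul_apply, fix_pow c0_fix,
    fix_pow b0_fix, fix_pow a0_fix]

theorem two_iff (i j k : ℕ) : Two φ (nf a0 b0 c0 i j k) c0 ↔ bad (i % 7) (j % 7) = true := by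
  obtain ⟨h1, h2⟩ := tab (i % 7) (by omega) (j % 7) (by omega)
  rw [heis0.mod, h2, List.any_eq_true]
  constructor
  · have key : ∀ p, p ≠ 0 → p ∈ orb φ ⊤ 0 → φ (nf a0 b0 c0 (i % 7) (j % 7) (k % 7)) p = p →
        φ c0 p = p → ∃ p ∈ fixL, (!Nat.beq p 0 &&
          Nat.beq (trF img (rp (i % 7) wa ++ rp (j % 7) wb) p) p) = true := by
      intro p h0 hp e1 e2
      rw [prim.orb_top] at hp
      rw [nf_apply e2, fix_iff h1 hp.2] at e1
      exact ⟨p, mem_fixL hp.2 e2, by
        have : Nat.beq p 0 = false := Bool.eq_false_iff.mpr fun e => h0 (Nat.eq_of_beq_eq_true e)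
        simp [this, e1]⟩
    rintro ⟨p, q, h0, hp, hq, e1, e2, e3, e4⟩
    by_cases hp0 : p = 0
    · exact key q (fun e => h0 (hp0.trans e.symm)) hq e2 e4
    · exact key p hp0 hp e1 e3
  · rintro ⟨p, hp, e⟩
    simp only [Bool.and_eq_true, Bool.not_eq_true', Nat.beq_eq_true_eq] at e
    obtain ⟨hl, e2⟩ := fixL_ok p hp
    have e3 : φ c0 p = p := (fix_iff (by decide) hl).mpr e2
    refine ⟨p, 0, Nat.ne_of_beq_eq_false e.1, ?_, mem_orb_self .., ?_, nf_fix .., e3, c0_fix⟩
    · rw [prim.orb_top]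
      exact ⟨Nat.zero_le _, hl⟩
    · rw [nf_apply e3, fix_iff h1 hl]
      simpa using e.2

theorem dich_bad : Dich bad := by
  have h : ∀ i < 7, ∀ j < 7, ∀ i' < 7, ∀ j' < 7, ((i * j' + 6 * (i' * j)) % 7 == 0 ||
      bad i j == bad i' j' || (List.range 7).any fun r => (List.range 7).any fun s =>
        bad ((r * i + s * i') % 7) ((r * j + s * j') % 7) &&
        !bad ((r * i + 6 * s * i') % 7) ((r * j + 6 * s * j') % 7)) = true := by decide +kernel
  intro i hi j hj i' hi' j' hj'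
  simpa [or_assoc] using h i hi j hj i' hi' j' hj'

def sig : List (List ℕ) := [[], [1], [2], [1, 3, 6, 7, 3, 5, 4, 3, 4, 5, 7], [6], [7, 5, 8],
  [1, 6, 7, 4, 7], [1, 4, 5, 4, 3, 7, 3, 5], [5, 3, 8, 3, 4, 5, 4, 1]]

def wh : List ℕ :=
  [2, 1, 5, 4, 3, 4, 3, 2, 5, 4, 3, 2, 4, 5, 7, 2, 1, 3, 4, 5, 4, 3, 2, 4, 3, 6, 5, 4, 7]

/-- An automorphism that moves the two lines with eight fixed points to lines with one. -/
theorem exists_aut : ∃ α : Spor.ON ≃* Spor.ON, α a0 = nf a0 b0 c0 1 4 2 ∧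
    α b0 = nf a0 b0 c0 2 6 6 ∧ α c0 = nf a0 b0 c0 0 0 5 := by
  have := simple
  have := finite
  obtain ⟨ψ, hψ⟩ := lift (main.2.2.good_evS (σ := sig) (by decide +kernel))
    (main.2.2.rels_evS (by decide +kernel))
  have e : ∀ w, ψ (evL ev w) = evL ev (subst sig w) := fun w => by
    rw [map_evL, evL_congr (ev' := evS ev sig) fun x _ => hψ x, evL_subst]
  have hi : Function.Injective ψ := injective_of_simple ψ (x := evL ev [1]) (by
    rw [e]
    exact hφ.ne_one (p := 7) (by decide +kernel))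
  have k : ∀ w i j k, fixB img 9 bs ((invW 129705363632919019776 wh ++ subst sig w ++ wh) ++
      invW 129705363632919019776 (rp i wa ++ rp j wb ++ rp k wc)) = true →
      (evL ev wh)⁻¹ * ψ (evL ev w) * (evL ev wh)⁻¹⁻¹ = nf a0 b0 c0 i j k := fun w i j k h => by
    have := eqw main.2.2 hev h
    simp only [evL_append, evL_invW hev, evL_rp] at this
    rw [e, inv_inv, this]
    rfl
  exact ⟨(MulEquiv.ofBijective ψ (Finite.injective_iff_bijective.mp hi)).trans
    (MulAut.conj (evL ev wh)⁻¹), k _ _ _ _ (by decide +kernel), k _ _ _ _ (by decide +kernel),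
    k _ _ _ _ (by decide +kernel)⟩

theorem bad_move : ∀ i < 7, ∀ j < 7, bad i j = true → (i = 0 ∧ j = 0) ∨
    bad ((i + 2 * j) % 7) ((4 * i + 6 * j) % 7) = false := by decide +kernel

end Cfsg.ON7
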