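import Cfsg.Agent.ON7.B
import Cfsg.Agent.H6.L37.Iso

/-! Subgroups `L₃(7):2` of the O'Nan group: index and suborbits. -/

set_option autoImplicit false
set_option maxRecDepth 100000
set_option Elab.async false

namespace Cfsg.ON7

open Cfsg.H6 Subgroup

def lx : List ℕ := [2, 3, 4, 3, 1, 5, 4, 3, 1, 4, 3, 2, 4, 5, 4, 3, 1, 4, 3, 5, 4, 3, 1]

def ly : List ℕ := [2, 3, 4, 3, 1, 6, 5, 4, 3, 2, 4, 3, 1, 5, 4, 3, 1, 4, 3, 5, 4, 3, 2, 4]

def lz : List ℕ := [1, 5, 4, 3, 4, 3, 2, 5, 4, 3, 2, 4, 3, 1, 5, 4, 3, 1, 4, 3, 5, 4, 3, 2, 6, 5]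

def lt : List ℕ := [4, 5, 4, 6, 5, 4]

def lu : List ℕ := [5, 6, 5]

def lv : List ℕ := [4, 5, 6, 5, 4]

noncomputable def x1 : L37.Grp := evL L37.ev lx

noncomputable def y1 : L37.Grp := evL L37.ev ly

noncomputable def z1 : L37.Grp := evL L37.ev lz

noncomputable def t1 : L37.Grp := evL L37.ev lt

noncomputable def u1 : L37.Grp := evL L37.ev lu

noncomputable def v1 : L37.Grp := evL L37.ev lv

theorem heis1 : Heis x1 y1 z1 :=
  heis_of L37.main.2.2 L37.hev (by decide +kernel) (L37.hφ.ne_one (p := 0) (by decide +kernel))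

theorem rel1 : t1 * x1 = x1 * t1 ∧ t1 * y1 = y1 ^ 6 * t1 ∧ t1 * z1 = z1 ^ 6 * t1 ∧
    x1 * u1 = u1 * z1 ∧ z1 * u1 = u1 * x1 ∧ y1 * v1 = v1 * z1 ∧ z1 * v1 = v1 * y1 := by
  simp only [x1, y1, z1, t1, u1, v1, ← evL_rp, ← evL_append]
  refine ⟨?_, ?_, ?_, ?_, ?_, ?_, ?_⟩ <;> exact eqw L37.main.2.2 L37.hev (by decide +kernel)

theorem gen1 {K : Subgroup L37.Grp} (hx : x1 ∈ K) (hu : u1 ∈ K) (hv : v1 ∈ K) : K = ⊤ := by
  rw [eq_top_iff, ← L37.hX]
  have h : ∀ w, evL L37.ev (subst [[], lx, lu, lv] w) ∈ K := evL_subst_mem (by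
    simp only [List.forall_mem_cons, List.not_mem_nil, IsEmpty.forall_iff, implies_true]
    exact ⟨one_mem _, hx, hu, hv, trivial⟩)
  have k : ∀ w v, fixB L37.img 7 L37.bs (w ++ invW 1694364648669696
      (subst [[], lx, lu, lv] v)) = true → evL L37.ev w ∈ K := fun w v e => by
    rw [eqw L37.main.2.2 L37.hev e]
    exact h v
  refine gen_le ?_
  simp only [L37.X, List.forall_mem_cons, List.not_mem_nil, IsEmpty.forall_iff, implies_true]
  exact ⟨k _ [1, 3, 1, 1, 1, 3, 1, 3, 1, 3, 1] (by decide +kernel),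
    k _ [1, 1, 3, 1, 1, 2, 1, 3, 1, 1, 1, 2, 3, 1, 2, 1, 2, 3, 1] (by decide +kernel),
    k _ [2, 3, 2] (by decide +kernel),
    k _ [2, 3, 1, 3, 1, 1, 1, 1, 1, 1, 3, 1, 2, 3] (by decide +kernel),
    k _ [3, 2, 1, 3, 1, 1, 1, 1, 1, 1, 3, 1] (by decide +kernel), trivial⟩

theorem le_of_good (ψ : L37.Grp →* Spor.ON) (hψ : Function.Injective ψ) {i j k i' j' k' : ℕ}
    (hx : ψ x1 = nf a0 b0 c0 i j k) (hy : ψ y1 = nf a0 b0 c0 i' j' k')
    (h1 : bad (i % 7) (j % 7) = false) (h2 : bad (i' % 7) (j' % 7) = false) :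
    ψ.range ≤ gen ON.ev ON.Ws := by
  have h' := heis1.map ψ hψ
  rw [hx, hy] at h'
  obtain ⟨e, hm⟩ := heis0.comm h'
  have n : ∀ r s t, bad (r % 7) (s % 7) = false → ¬ Two ON.φ (nf a0 b0 c0 r s t) (ψ z1) := by
    intro r s t h hc
    have := hc.pow ((i * j' + 6 * (i' * j)) ^ 5)
    rw [e, heis0.root hm, two_iff, h] at this
    exact absurd this (by simp)
  have z0 : ON.φ (ψ z1) 0 = 0 := e ▸ fix_pow c0_fix _
  obtain ⟨-, -, -, r1, r2, r3, r4⟩ := rel1
  have m : ∀ g, ON.φ (ψ g) 0 = 0 → g ∈ (gen ON.ev ON.Ws).comap ψ := fun g h => by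
    rw [mem_comap, ON.prim.stab, mem_fixS]
    simpa using h
  have := gen1 (K := (gen ON.ev ON.Ws).comap ψ) (m _ (hx ▸ nf_fix ..))
    (m _ (fix_of_not_two (n i j k h1) (nf_fix ..) z0 (by rw [← hx, ← map_mul, r1, map_mul])
      (by rw [← hx, ← map_mul, r2, map_mul])))
    (m _ (fix_of_not_two (n i' j' k' h2) (nf_fix ..) z0 (by rw [← hy, ← map_mul, r3, map_mul])
      (by rw [← hy, ← map_mul, r4, map_mul])))
  rintro _ ⟨g, rfl⟩
  exact (this ▸ mem_top g : g ∈ (gen ON.ev ON.Ws).comap ψ)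

theorem aut_nf {α : Spor.ON ≃* Spor.ON} (ha : α a0 = nf a0 b0 c0 1 4 2)
    (hb : α b0 = nf a0 b0 c0 2 6 6) (hc : α c0 = nf a0 b0 c0 0 0 5) (i j k : ℕ) :
    ∃ k', α (nf a0 b0 c0 i j k) = nf a0 b0 c0 (i + 2 * j) (4 * i + 6 * j) k' := by
  obtain ⟨k1, e1⟩ := heis0.pow 1 4 2 i
  obtain ⟨k2, e2⟩ := heis0.pow 2 6 6 j
  obtain ⟨k3, e3⟩ := heis0.pow 0 0 5 k
  exact ⟨_, by
    rw [nf, map_mul, map_mul, map_pow, map_pow, map_pow, ha, hb, hc, e1, e2, e3, heis0.mul,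
      heis0.mul, show i * 1 + j * 2 + k * 0 = i + 2 * j by ring,
      show i * 4 + j * 6 + k * 0 = 4 * i + 6 * j by ring]⟩

/-- Every copy of `L₃(7)` is moved into the standard point stabiliser by an automorphism. -/
theorem exists_le (ψ : L37.Grp →* Spor.ON) (hψ : Function.Injective ψ) :
    ∃ β : Spor.ON ≃* Spor.ON, (β.toMonoidHom.comp ψ).range ≤ gen ON.ev ON.Ws := by
  have := ON.finite
  obtain ⟨g, hg⟩ := conj_of_card (heis1.map ψ hψ).card heis0.card (by rw [ON.main.1]; norm_num)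
  obtain ⟨i, j, k, hx⟩ := heis0.exists_nf (hg _ (subset_closure (by simp)) :
    g * ψ x1 * g⁻¹ ∈ _)
  obtain ⟨i', j', k', hy⟩ := heis0.exists_nf (hg _ (subset_closure (by simp)) :
    g * ψ y1 * g⁻¹ ∈ _)
  rw [heis0.mod] at hx hy
  have hi : i % 7 < 7 := by omega
  have hj : j % 7 < 7 := by omega
  have hi' : i' % 7 < 7 := by omega
  have hj' : j' % 7 < 7 := by omega
  generalize i % 7 = i at *
  generalize j % 7 = j at *
  generalize i' % 7 = i' at *
  generalize j' % 7 = j' at *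
  generalize k % 7 = k at *
  generalize k' % 7 = k' at *
  let χ := (MulAut.conj g).toMonoidHom.comp ψ
  have hχ : Function.Injective χ := (MulAut.conj g).injective.comp hψ
  change χ x1 = _ at hx
  change χ y1 = _ at hy
  have h' := heis1.map χ hχ
  rw [hx, hy] at h'
  obtain ⟨r1, r2, r3, -⟩ := rel1
  have hd := dich heis0 two_iff dich_bad hi hj hi' hj' h' (T := χ t1)
    (by rw [← hx, ← map_mul, r1, map_mul, mul_inv_cancel_right])
    (by rw [← hy, ← map_mul, r2, map_mul, mul_inv_cancel_right, map_pow])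
    (by rw [← map_mul, r3, map_mul, mul_inv_cancel_right, map_pow])
  cases hb : bad i j
  · exact ⟨MulAut.conj g, le_of_good χ hχ hx hy (by rwa [Nat.mod_eq_of_lt hi, Nat.mod_eq_of_lt hj])
      (by rwa [Nat.mod_eq_of_lt hi', Nat.mod_eq_of_lt hj', ← hd])⟩
  · obtain ⟨α, ha, hb', hc⟩ := exists_aut
    obtain ⟨k1, e1⟩ := aut_nf ha hb' hc i j k
    obtain ⟨k2, e2⟩ := aut_nf ha hb' hc i' j' k'
    have hm := (heis0.comm h').2
    refine ⟨(MulAut.conj g).trans α, le_of_good (α.toMonoidHom.comp χ) (α.injective.comp hχ)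
      ((congrArg α hx).trans e1) ((congrArg α hy).trans e2) ?_ ?_⟩
    · refine (bad_move i hi j hj hb).resolve_left ?_
      rintro ⟨rfl, rfl⟩
      simp at hm
    · refine (bad_move i' hi' j' hj' (hd ▸ hb)).resolve_left ?_
      rintro ⟨rfl, rfl⟩
      simp at hm

/-- Index and suborbits of a subgroup `L₃(7):2` in a group isomorphic to the O'Nan group. -/
theorem main {G : Type*} [Group G] (hG : Spor.IsoON G) (H : Subgroup G) (N : Subgroup H)
    [N.Normal] (hN : N.index = 2)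
    (eN : N ≃* Matrix.ProjectiveSpecialLinearGroup (Fin 3) (ZMod 7)) :
    H.index = 122760 ∧ ∃ q₁ q₂ q₃ q₄ : G ⧸ H, (MulAction.orbit H q₁).ncard = 6384 ∧
      (MulAction.orbit H q₂).ncard = 5586 ∧ (MulAction.orbit H q₃).ncard = 58653 ∧
      (MulAction.orbit H q₄).ncard = 52136 := by
  have := ON.finite
  have := ON.simple
  obtain ⟨e⟩ := hG
  obtain ⟨e'⟩ := L37.iso_psl
  let ι := e'.trans eN.symm
  let ψ : L37.Grp →* Spor.ON :=
    e.toMonoidHom.comp (H.subtype.comp (N.subtype.comp ι.toMonoidHom))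
  have hψ : Function.Injective ψ :=
    e.injective.comp (H.subtype_injective.comp (N.subtype_injective.comp ι.injective))
  obtain ⟨β, hβ⟩ := exists_le ψ hψ
  set K := (β.toMonoidHom.comp ψ).range
  set H0 := gen ON.ev ON.Ws
  let f := e.trans β
  have cK : Nat.card K = 1876896 := by
    rw [← L37.main.1]
    exact (Nat.card_congr (MonoidHom.ofInjective (β.injective.comp hψ)).toEquiv).symm
  have cH0 : Nat.card H0 = 2 * 1876896 :=
    card_of_index ON.prim.index (by norm_num) ON.main.1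
  have cH : Nat.card H = 2 * 1876896 := by
    rw [← N.index_mul_card, hN, ← Nat.card_congr ι.toEquiv, L37.main.1]
  have h1 : H0 ≤ normalizer (K : Set Spor.ON) :=
    (normal_subgroupOf_iff_le_normalizer hβ).mp (index_two_subgroupOf hβ cK cH0).1
  have h2 : normalizer (K : Set Spor.ON) = H0 := by
    by_contra hc
    have := normalizer_eq_top_iff.mp (ON.coatom.2 _ (lt_of_le_of_ne h1 (Ne.symm hc)))
    rcases this.eq_bot_or_eq_top with h | h
    · rw [h] at cK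
      simp at cK
    · rw [h, card_top, ON.main.1] at cK
      norm_num at cK
  have h3 : H.map f.toMonoidHom ≤ H0 := by
    rintro _ ⟨x, hx, rfl⟩
    rw [← h2]
    refine mem_normalizer_fintype ?_
    rintro _ ⟨y, rfl⟩
    refine ⟨ι.symm ⟨⟨x, hx⟩ * (ι y).1 * (⟨x, hx⟩ : H)⁻¹, Normal.conj_mem ‹_› _ (ι y).2 _⟩, ?_⟩
    simp [ψ, f]
  have h4 : H.map f.toMonoidHom = H0 := eq_of_le_of_card_ge h3 (by
    rw [cH0, ← cH, card_map_of_injective f.injective])
  have h5 : ∀ x, f x ∈ H0 ↔ x ∈ H := fun x => by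
    rw [← h4]
    exact mem_map_iff_mem (f := f.toMonoidHom) f.injective
  refine ⟨?_, ?_⟩
  · rw [← ON.prim.index, ← index_comap_of_surjective (f := f.toMonoidHom) _ f.surjective]
    congr 1
    ext x
    exact (h5 x).symm
  · obtain ⟨q1, e1⟩ := orbit_map f h5 (((evL ON.ev [7, 2, 4, 7])⁻¹ : Spor.ON) : _ ⧸ H0)
    obtain ⟨q2, e2⟩ := orbit_map f h5 (((evL ON.ev [7, 4, 7])⁻¹ : Spor.ON) : _ ⧸ H0)
    obtain ⟨q3, e3⟩ := orbit_map f h5 (((evL ON.ev [7])⁻¹ : Spor.ON) : _ ⧸ H0)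
    obtain ⟨q4, e4⟩ := orbit_map f h5 (((evL ON.ev [7, 2, 7])⁻¹ : Spor.ON) : _ ⧸ H0)
    exact ⟨q1, q2, q3, q4,
      e1.trans (ON.prim.ncard (e := (5587, 11971, [7, 2, 4, 7])) (by decide)),
      e2.trans (ON.prim.ncard (e := (1, 5587, [7, 4, 7])) (by decide)),
      e3.trans (ON.prim.ncard (e := (64107, 122760, [7])) (by decide)),
      e4.trans (ON.prim.ncard (e := (11971, 64107, [7, 2, 7])) (by decide))⟩

end Cfsg.ON7
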